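import Cfsg.Agent.H90.LargeFischer.Stab

/-!
# No semilinear map commutes with the stabiliser of a short vector

The stabiliser of a vector of the short orbit contains an element whose trace is outside the prime
field; a semilinear bijection commuting with it would make the trace invariant under squaring.
-/

set_option autoImplicit false
set_option linter.unusedSectionVars false
set_option maxHeartbeats 400000

namespace Cfsg.Agent.H90.LargeFischer

open Matrix Cfsg Cfsg.Agent.H8.U62 Cfsg.Agent.H8.U62.Setup Cfsg.Agent.H84.LF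

variable {F : Type} [Setup F]

theorem om_cube : (om : F) * om * om = 1 := by
  linear_combination ((om : F) + 1) * hom (F := F) + (om : F) * two (F := F)

theorem exists_diag : ∃ s : SU 4 F 2,
    ((s : Matrix.SpecialLinearGroup (Fin 4) F) : Matrix (Fin 4) (Fin 4) F) =
      Matrix.diagonal ![(om : F), om, om, 1] := by
  have hd : (Matrix.diagonal ![(om : F), om, om, 1]).det = 1 := by
    rw [Matrix.det_diagonal, Fin.prod_univ_four]
    simpa using om_cube (F := F)
  refine ⟨⟨⟨_, hd⟩, H3.mem_SU_iff.2 fun u v => ?_⟩, rfl⟩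
  simp only [hermForm]
  refine Finset.sum_congr rfl fun k _ => ?_
  rw [Matrix.mulVec_diagonal, Matrix.mulVec_diagonal]
  fin_cases k <;> simp <;> linear_combination (u _ * v _ ^ 2) * om_cube (F := F)

theorem trace_fixed {g : SU6 F} (hg : g ∈ fixV (vA : Fin 6 → F)) :
    (mat g).trace = (blockFour g).trace := by
  have hr := congrFun (show mat g *ᵥ (vA : Fin 6 → F) = vA from hg) 0
  rw [vA_eq, Matrix.mulVec_add, Matrix.mulVec_single_one, Matrix.mulVec_single_one] at hr
  simp [Pi.single_apply, Fin.ext_iff] at hr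
  have hc := herm_fixed hg (Pi.single 1 1)
  rw [Matrix.mulVec_single_one] at hc
  simp [Pi.single_apply, Fin.ext_iff] at hc
  show ∑ k, mat g k k = ∑ j, blockFour g j j
  have h01 : mat g 0 0 + mat g 1 1 = 0 := by
    linear_combination hr + hc + (1 - mat g 0 1) * two (F := F)
  rw [sum_six_split, h01, zero_add]
  rfl

theorem exists_trace (i : Fin 3) {v : Fin 6 → F} (hv : v ∈ orbV i (vA : Fin 6 → F)) :
    ∃ g ∈ sub (F := F) i, mat g *ᵥ v = v ∧ (mat g).trace ^ 2 ≠ (mat g).trace := by
  obtain ⟨y, hy, rfl⟩ := hv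
  obtain ⟨s, hs⟩ := exists_diag (F := F)
  obtain ⟨x, hx⟩ := (show suToGU s ∈ (toFour (F := F) i).range from (range_toFour (F := F) i).symm ▸ ⟨s, rfl⟩)
  refine ⟨y * x.1 * y⁻¹, mul_mem (mul_mem hy x.2.1) (inv_mem hy), ?_, ?_⟩
  · rw [Matrix.mulVec_mulVec, ← mat_mul, inv_mul_cancel_right, mat_mul, ← Matrix.mulVec_mulVec,
      show mat x.1 *ᵥ (vA : Fin 6 → F) = vA from x.2.2]
  · have hb : blockFour x.1 = Matrix.diagonal ![(om : F), om, om, 1] := by
      rw [← toFour_val i x, hx, ← hs]; rfl
    rw [mat_mul, mat_mul, Matrix.trace_mul_comm, ← Matrix.mul_assoc, ← mat_mul, inv_mul_cancel, mat_one,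
      Matrix.one_mul, trace_fixed x.2.2, hb, Matrix.trace_diagonal, Fin.sum_univ_four]
    intro h
    simp at h
    refine om_ne_zero (F := F) ?_
    have e : ((om : F) + om + om + 1) = om + 1 := by linear_combination (om : F) * two (F := F)
    rw [e, ← hom, show ((om : F) * om) ^ 2 = (om * om * om) * om by ring, om_cube, one_mul] at h
    exact absurd (show (1 : F) = 0 by linear_combination -hom (F := F) - h) one_ne_zero

theorem pow_two_pow_two (x : F) : (x ^ 2) ^ 2 = x := by
  have := FiniteField.pow_card x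
  rw [Setup.card] at this
  rw [← pow_mul]; exact this

/-- A semilinear bijection commutes only with maps whose trace is fixed by squaring. -/
theorem trace_sq_eq (T : (Fin 6 → F) → (Fin 6 → F)) (hadd : ∀ a b, T (a + b) = T a + T b)
    (hsemi : ∀ (c : F) (a : Fin 6 → F), T (c • a) = c ^ 2 • T a) (hinj : Function.Injective T)
    (A : Matrix (Fin 6) (Fin 6) F) (hA : ∀ a, T (A *ᵥ a) = A *ᵥ T a) : A.trace ^ 2 = A.trace := by
  let Tm : (Fin 6 → F) →+ (Fin 6 → F) := AddMonoidHom.mk' T hadd
  let sq : F →+* F :=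
    { toFun := fun a => a ^ 2
      map_one' := one_pow 2
      map_mul' := fun a b => mul_pow a b 2
      map_zero' := by simp
      map_add' := fun a b => by linear_combination (a * b) * two (F := F) }
  set P : Matrix (Fin 6) (Fin 6) F := Matrix.of fun r c => T (Pi.single c 1) r
  have hT : ∀ a : Fin 6 → F, T a = P *ᵥ fun k => a k ^ 2 := by
    intro a
    have e : a = ∑ k, a k • (Pi.single k 1 : Fin 6 → F) := (pi_eq_sum_univ' a).trans rfl
    conv_lhs => rw [e]
    show Tm _ = _
    rw [map_sum]
    funext r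
    show (∑ k, T (a k • Pi.single k 1)) r = _
    simp only [hsemi, Finset.sum_apply, Pi.smul_apply, smul_eq_mul, Matrix.mulVec, dotProduct, P,
      Matrix.of_apply]
    exact Finset.sum_congr rfl fun k _ => mul_comm _ _
  have hPu : IsUnit P := by
    refine Matrix.mulVec_injective_iff_isUnit.1 fun a b h => ?_
    have e : ∀ a : Fin 6 → F, P *ᵥ a = T fun k => a k ^ 2 := fun a => by
      rw [hT]; simp only [pow_two_pow_two]
    have h' := hinj ((e a).symm.trans (h.trans (e b)))
    funext k
    rw [← pow_two_pow_two (a k), ← pow_two_pow_two (b k), congrFun h' k]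
  have hcomm : A * P = P * A.map sq := by
    refine Matrix.ext_of_mulVec_single fun c => ?_
    have he : (fun k => (Pi.single c 1 : Fin 6 → F) k ^ 2) = Pi.single c 1 := by
      funext k; by_cases h : k = c <;> simp [Pi.single_apply, h]
    have h1 := hA (Pi.single c 1)
    rw [hT (Pi.single c 1), he, Matrix.mulVec_mulVec, hT] at h1
    rw [← h1, ← Matrix.mulVec_mulVec]
    congr 1
    funext k
    simp [sq]
  obtain ⟨u, hu⟩ := hPu
  have e2 : A.map sq = (↑u⁻¹ : Matrix (Fin 6) (Fin 6) F) * A * (↑u : Matrix (Fin 6) (Fin 6) F) := by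
    rw [Matrix.mul_assoc, hu, hcomm, ← Matrix.mul_assoc, ← hu, Units.inv_mul, Matrix.one_mul]
  have htr : (A.map sq).trace = A.trace := by rw [e2, Matrix.trace_units_conj']
  exact (AddMonoidHom.map_trace sq.toAddMonoidHom A).trans htr

end Cfsg.Agent.H90.LargeFischer
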