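import Cfsg.Agent.H84.LF.Main
import Cfsg.Agent.H90.LargeFischer.Trace
import Cfsg.Agent.H97.M22.OMinusSix

/-!
# The stabiliser of a non-central involution in a group of large Fischer type

Modulo `Q` the stabiliser of the image of a noncentral involution is twice `SU 4` over the field of
four elements, with trivial centre, so it is the orthogonal group of the elliptic form in dimension six.
-/

set_option autoImplicit false
set_option linter.unusedSectionVars false
set_option maxHeartbeats 800000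

namespace Cfsg.Agent.H90.LargeFischer

open Matrix Cfsg Cfsg.Agent.H8.U62 Cfsg.Agent.H8.U62.Setup Cfsg.Agent.H84.LF

theorem card_map_mk {C : Type*} [Group C] (Q H : Subgroup C) [Q.Normal] (hQ : Q ≤ H) :
    Nat.card (H.map (QuotientGroup.mk' Q)) * Nat.card Q = Nat.card H := by
  set f : H →* (H.map (QuotientGroup.mk' Q) : Subgroup (C ⧸ Q)) := (QuotientGroup.mk' Q).subgroupMap H
  have hk : f.ker = Q.subgroupOf H := by
    ext x
    rw [MonoidHom.mem_ker, Subgroup.mem_subgroupOf]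
    exact (Subtype.ext_iff.trans (QuotientGroup.eq_one_iff (x : C)))
  have h := f.ker.card_mul_index
  rw [Subgroup.index_ker, MonoidHom.range_eq_top.2 ((QuotientGroup.mk' Q).subgroupMap_surjective H),
    Subgroup.card_top, hk, Nat.card_congr (Subgroup.subgroupOfEquivOfLe hQ).toEquiv] at h
  rw [mul_comm]; exact h

variable {G : Type*} [Group G] {F : Type} [Setup F] {z : G}
  {Q : Subgroup (Subgroup.centralizer ({z} : Set G))} [Q.Normal] (D : Model F z Q)

theorem φ_one : D.φ 1 = 0 := (D.φ_zero 1 (one_mem Q)).2 (Or.inl rfl)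

theorem φ_inner {q a : Subgroup.centralizer ({z} : Set G)} (hq : q ∈ Q) (ha : a ∈ Q) :
    D.φ (q * a * q⁻¹) = D.φ a := by
  have h1 := D.φ_mul _ hq _ (mul_mem ha (inv_mem hq))
  have h2 := D.φ_mul _ ha _ (inv_mem hq)
  have h3 := D.φ_mul _ hq _ (inv_mem hq)
  rw [mul_inv_cancel, φ_one D] at h3
  rw [mul_assoc, h1, h2, add_left_comm, ← h3, add_zero]

theorem rho_eq_one_iff (m : D.M) : D.ρ m = 1 ↔ (m : Subgroup.centralizer ({z} : Set G)) ∈ Q := by
  refine ⟨D.ρ_ker m, fun hq => ext_mat (Matrix.ext fun r c => ?_)⟩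
  obtain ⟨a, ha, ea⟩ := D.φ_surj (Pi.single c 1)
  have h := D.ρ_act m a ha
  rw [φ_inner D hq ha, ea, Matrix.mulVec_single_one] at h
  have := congrFun h.symm r
  rw [Pi.single_apply] at this
  rw [mat_one, Matrix.one_apply]
  exact this

theorem coe_mul_z {t : Subgroup.centralizer ({z} : Set G)} {x : Subgroup.centralizer ({z} : Set G)}
    (hx : x ∈ Q) (ht : t ∈ Q) :
    (x = t ∨ (x : G) = t * z) ↔ D.φ x = D.φ t := by
  constructor
  · rintro (rfl | e)
    · rfl
    · have hm := mul_mem (inv_mem ht) hx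
      have h1 := D.φ_mul t ht _ hm
      rw [mul_inv_cancel_left] at h1
      rw [h1, (D.φ_zero _ hm).2 (Or.inr ?_), add_zero]
      rw [Subgroup.coe_mul, Subgroup.coe_inv, e, inv_mul_cancel_left]
  · intro h
    rcases D.eq_or_eq_mul ht hx h.symm with e | e
    · exact Or.inl (Subtype.ext e)
    · exact Or.inr e

variable [Finite G]

/-- The isomorphism, given that the elements outside the index-two subgroup act semilinearly. -/
theorem stabilizer_iso (hanti : ∀ c, c ∉ D.M → ∀ (x : F) (a b : Subgroup.centralizer ({z} : Set G)), a ∈ Q →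
      b ∈ Q → D.φ b = x • D.φ a → D.φ (c * b * c⁻¹) = x ^ 2 • D.φ (c * a * c⁻¹))
    {g : G} {s : Subgroup.centralizer ({z} : Set G)} (hsQ : s ∈ Q) (hg : (s : G) = g * z * g⁻¹)
    (hsz : (s : G) ≠ z)
    (t : Subgroup.centralizer ({z} : Set G)) (htQ : t ∈ Q) (ht2 : orderOf t = 2) (ht : ¬ IsConj z (t : G))
    (S : Subgroup (Subgroup.centralizer ({z} : Set G)))
    (hS : ∀ h : Subgroup.centralizer ({z} : Set G), h ∈ S ↔ (h * t * h⁻¹ = t ∨
      ((h * t * h⁻¹ : Subgroup.centralizer ({z} : Set G)) : G) = t * z)) :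
    Nonempty (↥(S.map (QuotientGroup.mk' Q)) ≃* H97.M22.OSix) := by
  classical
  have hn : Q.Normal := ‹_›
  have hMn := D.Mn
  have hSφ : ∀ h : ↥(Subgroup.centralizer ({z} : Set G)), h ∈ S ↔ D.φ (h * t * h⁻¹) = D.φ t := fun h => by
    rw [hS, coe_mul_z D (hn.conj_mem t htQ h) htQ]
  -- the image of `t` lies in the short orbit
  obtain ⟨hv0, hviso⟩ := D.involution htQ ht2 fun e => ht (e.symm ▸ IsConj.refl z)
  set v := D.φ t with hv
  have hvA : v ∈ orbV D.i (vA : Fin 6 → F) := by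
    rcases (orb_two (F := F) D.i).2.2 v hv0 hviso with h | h
    · exact h
    · exfalso
      have hs' := D.conj_in_long hsQ hg hsz
      have hne : D.φ s ≠ 0 := fun e => by
        rw [e] at hs'
        obtain ⟨x, -, ex⟩ := hs'
        refine (vB_iso (F := F)).2 ?_
        have := congrArg (fun u => mat x⁻¹ *ᵥ u) ex
        simpa [Matrix.mulVec_mulVec, ← mat_mul, mat_one, Matrix.one_mulVec] using this
      obtain ⟨c, hc⟩ := D.conj_of_same_orbit hsQ htQ hne (D.orbV_eq hs' ▸ h)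
      refine ht (isConj_iff.2 ⟨(c : G) * g, ?_⟩)
      rw [← hc]
      show _ = (c : G) * (s : G) * (c : G)⁻¹
      rw [hg]; group
  -- the part inside `M`
  set W : Subgroup ↥(Subgroup.centralizer ({z} : Set G)) := S ⊓ D.M with hW
  let r : W →* SU6 F := D.ρ.comp (Subgroup.inclusion inf_le_right)
  have hrange : r.range = sub D.i ⊓ fixV v := by
    ext x
    constructor
    · rintro ⟨w, rfl⟩
      refine ⟨D.rho_mem _, ?_⟩
      show mat (D.ρ _) *ᵥ D.φ t = D.φ t
      rw [← D.ρ_act _ t htQ]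
      exact (hSφ _).1 w.2.1
    · rintro ⟨hx, hxv⟩
      obtain ⟨m, rfl⟩ := (show x ∈ D.ρ.range from D.ρ_range.symm ▸ hx)
      exact ⟨⟨m, (hSφ _).2 ((D.ρ_act m t htQ).trans hxv), m.2⟩, rfl⟩
  have hrker : ∀ w : W, r w = 1 ↔ (w : ↥(Subgroup.centralizer ({z} : Set G))) ∈ Q := fun w => rho_eq_one_iff D _
  set mkW : W →* (W.map (QuotientGroup.mk' Q) : Subgroup (↥(Subgroup.centralizer ({z} : Set G)) ⧸ Q)) := (QuotientGroup.mk' Q).subgroupMap W
  obtain ⟨e4⟩ := stab_iso D.i hvA
  have eW : ↥(W.map (QuotientGroup.mk' Q)) ≃* ↥(SU 4 F 2) := by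
    have hk : mkW.ker = r.ker := by
      ext x
      rw [MonoidHom.mem_ker, MonoidHom.mem_ker, hrker]
      exact Subtype.ext_iff.trans (QuotientGroup.eq_one_iff (x : ↥(Subgroup.centralizer ({z} : Set G))))
    exact ((QuotientGroup.quotientKerEquivOfSurjective mkW
        ((QuotientGroup.mk' Q).subgroupMap_surjective W)).symm.trans
      ((QuotientGroup.quotientMulEquivOfEq hk).trans (QuotientGroup.quotientKerEquivRange r))).trans
      ((MulEquiv.subgroupCongr hrange).trans e4)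
  -- an element outside `M`
  have hout : ∃ h ∈ S, h ∉ D.M := by
    obtain ⟨c, hc⟩ : ∃ c, c ∉ D.M := by
      by_contra hall
      push Not at hall
      have := D.M2
      rw [show D.M = ⊤ from Subgroup.eq_top_iff' _ |>.2 hall, Subgroup.index_top] at this
      norm_num at this
    have hct := hn.conj_mem t htQ c
    have hcA : D.φ (c * t * c⁻¹) ∈ orbV D.i (vA : Fin 6 → F) := by
      have hnc := D.orb_ncard_conj htQ c
      rw [← hv, D.orbV_eq hvA, (orb_two (F := F) D.i).1] at hnc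
      have hne : D.φ (c * t * c⁻¹) ≠ 0 := fun e => by
        have h0 := D.φ_congr hct (one_mem Q) (e.trans (φ_one D).symm) c⁻¹
        simp [mul_assoc, φ_one D] at h0
        exact hv0 h0
      have hiso : hermForm 6 F 2 (D.φ (c * t * c⁻¹)) (D.φ (c * t * c⁻¹)) = 0 :=
        (D.φ_iso _ hct).2 (by
          rw [← pow_two, conj_pow, ← ht2, pow_orderOf_eq_one, mul_one, mul_inv_cancel])
      rcases (orb_two (F := F) D.i).2.2 _ hne hiso with h | h
      · exact h
      · rw [D.orbV_eq h, (orb_two (F := F) D.i).2.1] at hnc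
        norm_num at hnc
    obtain ⟨m, hm⟩ := (D.mem_orb hct).1 (show v ∈ orbV D.i (D.φ (c * t * c⁻¹)) from by
      rw [D.orbV_eq hcA]; exact hvA)
    refine ⟨m * c, (hSφ _).2 ?_, fun h => hc ?_⟩
    · rw [← hm]; congr 1; group
    · simpa using mul_mem (inv_mem m.2) h
  obtain ⟨h0, h0S, h0M⟩ := hout
  have hQS : Q ≤ S := fun q hq => (hSφ q).2 (φ_inner D hq htQ)
  have hQW : Q ≤ W := le_inf hQS D.QM
  have hcardW : Nat.card (W.map (QuotientGroup.mk' Q)) = 25920 := by
    rw [Nat.card_congr eW.toEquiv, H97.M22.card_SU_four (hcard4 (F := F))]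
  have hcardO : Nat.card (S.map (QuotientGroup.mk' Q)) = 51840 := by
    have h1 := card_map_mk Q S hQS
    have h2 := card_map_mk Q W hQW
    have h3 := (D.M.subgroupOf S).card_mul_index
    rw [← Subgroup.inf_subgroupOf_left D.M S,
      Nat.card_congr (Subgroup.subgroupOfEquivOfLe (inf_le_left : S ⊓ D.M ≤ S)).toEquiv] at h3
    have hrel : ((S ⊓ D.M).subgroupOf S).index = 2 := by
      rw [Subgroup.inf_subgroupOf_left]
      have hd : D.M.relIndex S ∣ 2 := D.M2 ▸ Subgroup.relIndex_dvd_index_of_normal D.M S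
      rcases (Nat.dvd_prime Nat.prime_two).1 hd with e | e
      · exact absurd (Subgroup.relIndex_eq_one.1 e h0S) h0M
      · exact e
    rw [hrel, ← h1, show Nat.card ↥(S ⊓ D.M) = _ from h2.symm, hcardW] at h3
    have hQpos : 0 < Nat.card Q := Nat.card_pos
    nlinarith
  -- the normal subgroup
  set O : Subgroup (↥(Subgroup.centralizer ({z} : Set G)) ⧸ Q) := S.map (QuotientGroup.mk' Q) with hO
  set W' : Subgroup O := (W.map (QuotientGroup.mk' Q)).subgroupOf O with hW'
  have hW'n : W'.Normal := by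
    refine ⟨?_⟩
    rintro ⟨-, x, hx, rfl⟩ hxW ⟨-, y, hy, rfl⟩
    obtain ⟨w, hw, ew⟩ := hxW
    have hy' : y ∈ S := hy
    have hw' : w ∈ S ∧ w ∈ D.M := hw
    refine ⟨y * w * y⁻¹, Subgroup.mem_inf.2 ⟨S.mul_mem (S.mul_mem hy' hw'.1) (S.inv_mem hy'), hMn.conj_mem w hw'.2 y⟩, ?_⟩
    simp only [map_mul, map_inv] at ew ⊢
    rw [ew]; rfl
  have eW' : ↥W' ≃* ↥(SU 4 F 2) :=
    (Subgroup.subgroupOfEquivOfLe (Subgroup.map_mono inf_le_left)).trans eW
  have hcent : Subgroup.center ↥W' = ⊥ := by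
    rw [Subgroup.eq_bot_iff_forall]
    intro x hx
    refine eW'.injective ((Subgroup.mem_bot.1 (H97.M22.center_SU_four (hcard4 (F := F)) ▸ ?_)).trans (map_one _).symm)
    refine Subgroup.mem_center_iff.2 fun y => ?_
    obtain ⟨w, rfl⟩ := eW'.surjective y
    rw [← map_mul, ← map_mul, Subgroup.mem_center_iff.1 hx w]
  obtain ⟨u⟩ := H97.M22.nonempty_SU_equiv_PSU (hcard4 (F := F))
  let eP : ↥W' ⧸ Subgroup.center ↥W' ≃* Cfsg.PSU 4 F 2 :=
    ((QuotientGroup.quotientMulEquivOfEq hcent).trans QuotientGroup.quotientBot).trans (eW'.trans u)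
  have hSc : Subgroup.center (Cfsg.PSU 4 F 2) = ⊥ := by
    rw [Subgroup.eq_bot_iff_forall]
    intro x hx
    refine u.symm.injective ((Subgroup.mem_bot.1 (H97.M22.center_SU_four (hcard4 (F := F)) ▸ ?_)).trans (map_one _).symm)
    refine Subgroup.mem_center_iff.2 fun y => ?_
    obtain ⟨w, rfl⟩ := u.symm.surjective y
    rw [← map_mul, ← map_mul, Subgroup.mem_center_iff.1 hx w]
  have hcardS : Nat.card O = 2 * Nat.card (Cfsg.PSU 4 F 2) := by
    rw [hcardO, ← Nat.card_congr u.toEquiv, H97.M22.card_SU_four (hcard4 (F := F))]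
  have hOc : ∀ x ∈ Subgroup.center O, x = 1 := by
    rintro ⟨-, h, hh, rfl⟩ hx
    have hxc : ∀ w ∈ W, (h * w)⁻¹ * (w * h) ∈ Q := fun w hw => by
      have e := congrArg Subtype.val (Subgroup.mem_center_iff.1 hx
        ⟨_, Subgroup.mem_map_of_mem (QuotientGroup.mk' Q) hw.1⟩)
      simp only [Subgroup.coe_mul, ← map_mul] at e
      exact QuotientGroup.eq.1 e.symm
    by_cases hhM : h ∈ D.M
    · have hmem : (⟨_, Subgroup.mem_map_of_mem (QuotientGroup.mk' Q) hh⟩ : O) ∈ W' :=
        Subgroup.mem_map_of_mem (QuotientGroup.mk' Q) (show h ∈ W from ⟨hh, hhM⟩)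
      have h1 : (⟨_, hmem⟩ : ↥W') ∈ Subgroup.center ↥W' :=
        Subgroup.mem_center_iff.2 fun w => Subtype.ext (Subgroup.mem_center_iff.1 hx w.1)
      rw [hcent, Subgroup.mem_bot] at h1
      exact congrArg Subtype.val h1
    · exfalso
      choose f hf hfφ using D.φ_surj
      let T : (Fin 6 → F) → (Fin 6 → F) := fun a => D.φ (h * f a * h⁻¹)
      have hT : ∀ a : ↥(Subgroup.centralizer ({z} : Set G)), a ∈ Q → T (D.φ a) = D.φ (h * a * h⁻¹) := fun a ha =>
        D.φ_congr (hf _) ha (hfφ _) h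
      have hadd : ∀ a b, T (a + b) = T a + T b := by
        intro a b
        conv_lhs => rw [← hfφ a, ← hfφ b, ← D.φ_mul _ (hf a) _ (hf b), hT _ (mul_mem (hf a) (hf b))]
        show _ = D.φ (h * f a * h⁻¹) + D.φ (h * f b * h⁻¹)
        rw [← D.φ_mul _ (hn.conj_mem _ (hf a) h) _ (hn.conj_mem _ (hf b) h)]
        congr 1; group
      have hsemi : ∀ (c : F) (a : Fin 6 → F), T (c • a) = c ^ 2 • T a := fun c a =>
        hanti h hhM c (f a) (f (c • a)) (hf a) (hf _) (by rw [hfφ, hfφ])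
      have hinj : Function.Injective T := fun a b e => by
        have := D.φ_congr (hn.conj_mem _ (hf a) h) (hn.conj_mem _ (hf b) h) e h⁻¹
        simpa [mul_assoc, hfφ] using this
      obtain ⟨k, hk, hkv, hktr⟩ := exists_trace D.i hvA
      obtain ⟨m, hm⟩ := (show k ∈ D.ρ.range from D.ρ_range.symm ▸ hk)
      have hmS : (m : ↥(Subgroup.centralizer ({z} : Set G))) ∈ S := (hSφ _).2 (by rw [D.ρ_act m t htQ, hm]; exact hkv)
      refine hktr (trace_sq_eq T hadd hsemi hinj _ fun a => ?_)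
      have hq := hxc (m : ↥(Subgroup.centralizer ({z} : Set G))) ⟨hmS, m.2⟩
      set q := (h * (m : ↥(Subgroup.centralizer ({z} : Set G))))⁻¹ * ((m : ↥(Subgroup.centralizer ({z} : Set G))) * h) with hqdef
      have hmh : (m : ↥(Subgroup.centralizer ({z} : Set G))) * h = h * (m : ↥(Subgroup.centralizer ({z} : Set G))) * q := by rw [hqdef]; group
      obtain ⟨b, hb, rfl⟩ := D.φ_surj a
      rw [← hm, ← D.ρ_act m b hb, hT _ (hn.conj_mem b hb _), hT b hb, ← D.ρ_act m _ (hn.conj_mem b hb h)]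
      have e : (m : ↥(Subgroup.centralizer ({z} : Set G))) * (h * b * h⁻¹) * (m : ↥(Subgroup.centralizer ({z} : Set G)))⁻¹ = h * ((m : ↥(Subgroup.centralizer ({z} : Set G))) * (q * b * q⁻¹) * (m : ↥(Subgroup.centralizer ({z} : Set G)))⁻¹) * h⁻¹ := by
        calc (m : ↥(Subgroup.centralizer ({z} : Set G))) * (h * b * h⁻¹) * (m : ↥(Subgroup.centralizer ({z} : Set G)))⁻¹ = ((m : ↥(Subgroup.centralizer ({z} : Set G))) * h) * b * ((m : ↥(Subgroup.centralizer ({z} : Set G))) * h)⁻¹ := by group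
          _ = (h * (m : ↥(Subgroup.centralizer ({z} : Set G))) * q) * b * (h * (m : ↥(Subgroup.centralizer ({z} : Set G))) * q)⁻¹ := by rw [hmh]
          _ = _ := by group
      rw [e, D.φ_congr (hn.conj_mem _ (hn.conj_mem b hb q) _) (hn.conj_mem b hb _)
        (by rw [D.ρ_act m _ (hn.conj_mem b hb q), D.ρ_act m b hb, φ_inner D hq hb]) h]
  obtain ⟨φO, hφO⟩ := H97.M22.exists_embedding W' eP hSc hcardS hOc
  haveI : Finite (MulAut (Cfsg.PSU 4 F 2)) :=
    Finite.of_injective (fun σ : MulAut (Cfsg.PSU 4 F 2) => (σ : Cfsg.PSU 4 F 2 → Cfsg.PSU 4 F 2))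
      fun σ τ h => MulEquiv.ext fun x => congrFun h x
  obtain ⟨eO⟩ := H97.M22.nonempty_OSix_equiv (hcard4 (F := F))
  exact ⟨(MulEquiv.ofBijective φO ⟨hφO, (hφO.bijective_of_nat_card_le (by
    rw [hcardO]; exact H97.M22.card_aut_PSU_four_le (hcard4 (F := F)))).2⟩).trans eO.symm⟩

end Cfsg.Agent.H90.LargeFischer
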