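import Cfsg.Agent.H84.LF.Orbits
import Cfsg.Agent.H97.M22.AutFour

/-!
# The stabiliser of a vector of the short orbit

In a subgroup `sub i` of `SU6` of type triple cover of `U4(3)`, the stabiliser of a vector of the
orbit of length 378 acts faithfully on the perpendicular space modulo the line of the vector, and so
is the special unitary group in dimension four over the field of four elements.
-/

set_option autoImplicit false
set_option linter.unusedSectionVars false
set_option maxHeartbeats 400000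
set_option maxRecDepth 20000

namespace Cfsg.Agent.H90.LargeFischer

open Matrix Cfsg Cfsg.Agent.H8.U62 Cfsg.Agent.H8.U62.Setup Cfsg.Agent.H84.LF

variable {F : Type} [Setup F]

theorem add_self_zero (x : F) : x + x = 0 := by linear_combination x * two (F := F)

theorem add_eq_zero_iff_same {a b : F} : a + b = 0 ↔ a = b :=
  ⟨fun h => by linear_combination h - b * two (F := F), fun h => by rw [h]; exact add_self_zero b⟩

theorem vA_eq : (vA : Fin 6 → F) = Pi.single 0 1 + Pi.single 1 1 := by
  show vecF (om : F) (Nat.xor 1 4) = _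
  rw [vecF_xor _ hom two]
  show (eF 0 : Fin 6 → F) + eF 1 = _
  rw [eF_eq_single, eF_eq_single]

theorem vA_zero : (vA : Fin 6 → F) 0 = 1 := by
  rw [vA_eq, Pi.add_apply, Pi.single_eq_same, Pi.single_eq_of_ne (by decide), add_zero]

theorem vA_one : (vA : Fin 6 → F) 1 = 1 := by
  rw [vA_eq, Pi.add_apply, Pi.single_eq_same, Pi.single_eq_of_ne (by decide), zero_add]

theorem vA_rest {k : Fin 6} (h0 : k ≠ 0) (h1 : k ≠ 1) : (vA : Fin 6 → F) k = 0 := by
  rw [vA_eq, Pi.add_apply, Pi.single_eq_of_ne h0, Pi.single_eq_of_ne h1, add_zero]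

theorem herm_vA (x : Fin 6 → F) : hermForm 6 F 2 x vA = x 0 + x 1 := by
  rw [hermForm, Fin.sum_univ_six, vA_zero, vA_one, vA_rest (k := 2) (by decide) (by decide),
    vA_rest (k := 3) (by decide) (by decide), vA_rest (k := 4) (by decide) (by decide),
    vA_rest (k := 5) (by decide) (by decide)]
  ring

/-- The four indices off the vector. -/
def hi (j : Fin 4) : Fin 6 := Fin.natAdd 2 j

theorem hi_ne_zero (j : Fin 4) : hi j ≠ 0 := by revert j; decide

theorem hi_ne_one (j : Fin 4) : hi j ≠ 1 := by revert j; decide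

theorem vA_hi (j : Fin 4) : (vA : Fin 6 → F) (hi j) = 0 := vA_rest (hi_ne_zero j) (hi_ne_one j)

/-- The block of an element on those indices. -/
def blockFour (g : SU6 F) : Matrix (Fin 4) (Fin 4) F := (mat g).submatrix hi hi

theorem sum_six_split (f : Fin 6 → F) : ∑ k, f k = f 0 + f 1 + ∑ j, f (hi j) := by
  rw [Fin.sum_univ_six, Fin.sum_univ_four]
  simp only [show hi 0 = (2 : Fin 6) from rfl, show hi 1 = (3 : Fin 6) from rfl,
    show hi 2 = (4 : Fin 6) from rfl, show hi 3 = (5 : Fin 6) from rfl]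
  ring

variable {g : SU6 F}

theorem herm_fixed (hg : g ∈ fixV (vA : Fin 6 → F)) (x : Fin 6 → F) :
    (mat g *ᵥ x) 0 + (mat g *ᵥ x) 1 = x 0 + x 1 := by
  rw [← herm_vA, ← herm_vA]
  conv_lhs => rw [← (show mat g *ᵥ (vA : Fin 6 → F) = vA from hg)]
  exact herm_mulVec g x vA

theorem row_hi (hg : g ∈ fixV (vA : Fin 6 → F)) (j : Fin 4) : mat g (hi j) 1 = mat g (hi j) 0 := by
  have h := congrFun (show mat g *ᵥ (vA : Fin 6 → F) = vA from hg) (hi j)
  rw [vA_hi, vA_eq, Matrix.mulVec_add, Matrix.mulVec_single_one, Matrix.mulVec_single_one] at h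
  exact (add_eq_zero_iff_same.1 h).symm

theorem mulVec_hi (hg : g ∈ fixV (vA : Fin 6 → F)) (x : Fin 6 → F) (j : Fin 4) :
    (mat g *ᵥ x) (hi j) = mat g (hi j) 0 * (x 0 + x 1) + (blockFour g *ᵥ fun k => x (hi k)) j := by
  show ∑ k, mat g (hi j) k * x k = _
  rw [sum_six_split, row_hi hg j]
  simp only [Matrix.mulVec, dotProduct, blockFour, Matrix.submatrix_apply]
  ring

theorem col_hi (hg : g ∈ fixV (vA : Fin 6 → F)) (k : Fin 4) : mat g 1 (hi k) = mat g 0 (hi k) := by
  have h := herm_fixed hg (Pi.single (hi k) 1)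
  rw [Matrix.mulVec_single_one, Pi.single_eq_of_ne (hi_ne_zero k).symm,
    Pi.single_eq_of_ne (hi_ne_one k).symm, add_zero] at h
  exact (add_eq_zero_iff_same.1 h).symm

theorem blockFour_mul (hg : g ∈ fixV (vA : Fin 6 → F)) {h : SU6 F}
    (hh : h ∈ fixV (vA : Fin 6 → F)) : blockFour (g * h) = blockFour g * blockFour h := by
  ext j k
  show mat (g * h) (hi j) (hi k) = _
  rw [mat_mul, Matrix.mul_apply, sum_six_split, row_hi hg j, col_hi hh k, Matrix.mul_apply,
    ← mul_two, show (2 : F) = 0 by linear_combination two (F := F), mul_zero, zero_add]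
  rfl

theorem blockFour_one : blockFour (1 : SU6 F) = 1 := by
  rw [blockFour, mat_one]
  exact Matrix.submatrix_one _ (Fin.natAdd_injective 4 2)

/-- Extend a vector on the four indices by zero. -/
def extendFour (x : Fin 4 → F) : Fin 6 → F := Fin.append ![0, 0] x

theorem extendFour_hi (x : Fin 4 → F) (j : Fin 4) : extendFour x (hi j) = x j := by
  simp [extendFour, hi]

theorem extendFour_zero (x : Fin 4 → F) : extendFour x 0 = 0 := rfl

theorem extendFour_one (x : Fin 4 → F) : extendFour x 1 = 0 := rfl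

theorem blockFour_herm (hg : g ∈ fixV (vA : Fin 6 → F)) (x y : Fin 4 → F) :
    hermForm 4 F 2 (blockFour g *ᵥ x) (blockFour g *ᵥ y) = hermForm 4 F 2 x y := by
  have hh := herm_mulVec g (extendFour x) (extendFour y)
  simp only [hermForm] at hh ⊢
  rw [sum_six_split, sum_six_split] at hh
  simp only [extendFour_zero, extendFour_one, extendFour_hi, zero_mul, add_zero, zero_add,
    mulVec_hi hg, mul_zero] at hh
  have hx : (mat g *ᵥ extendFour x) 1 = (mat g *ᵥ extendFour x) 0 :=
    (add_eq_zero_iff_same.1 ((herm_fixed hg (extendFour x)).trans (by simp [extendFour_zero, extendFour_one]))).symm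
  have hy : (mat g *ᵥ extendFour y) 1 = (mat g *ᵥ extendFour y) 0 :=
    (add_eq_zero_iff_same.1 ((herm_fixed hg (extendFour y)).trans (by simp [extendFour_zero, extendFour_one]))).symm
  rw [hx, hy, add_self_zero, zero_add] at hh
  exact hh

variable (i : Fin 3)

/-- The stabiliser of the first representative. -/
noncomputable abbrev stabA : Subgroup (SU6 F) := sub i ⊓ fixV vA

/-- The action on the perpendicular space modulo the line. -/
noncomputable def toFour : stabA (F := F) i →* GU 4 F 2 :=
  let f : stabA (F := F) i →* Matrix (Fin 4) (Fin 4) F :=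
    { toFun := fun g => blockFour g.1
      map_one' := blockFour_one
      map_mul' := fun a b => blockFour_mul a.2.2 b.2.2 }
  f.toHomUnits.codRestrict _ fun g => fun u v => blockFour_herm g.2.2 u v

theorem toFour_val (g : stabA (F := F) i) :
    (((toFour i g : GU 4 F 2) : GL (Fin 4) F) : Matrix (Fin 4) (Fin 4) F) = blockFour g.1 := rfl

theorem pow_four_eq_one (hg : g ∈ fixV (vA : Fin 6 → F)) (h : blockFour g = 1) : g ^ 4 = 1 := by
  refine ext_mat (Matrix.ext_of_mulVec_single fun c => ?_)
  have hfix : mat g *ᵥ (vA : Fin 6 → F) = vA := hg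
  -- the element squares to a map into the line of the vector
  have key : ∀ x : Fin 6 → F, ∃ a : F, mat g *ᵥ (mat g *ᵥ x) = x + a • vA := by
    intro x
    set y := mat g *ᵥ x + x with hy
    have hy01 : y 0 + y 1 = 0 := by
      simp only [hy, Pi.add_apply]
      linear_combination herm_fixed hg x + (x 0 + x 1) * two (F := F)
    refine ⟨(mat g *ᵥ y) 0 + y 0, ?_⟩
    have hz : mat g *ᵥ y + y = ((mat g *ᵥ y) 0 + y 0) • (vA : Fin 6 → F) := by
      funext k
      have hz1 : (mat g *ᵥ y) 1 + y 1 = (mat g *ᵥ y) 0 + y 0 := by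
        refine add_eq_zero_iff_same.1 ?_
        linear_combination herm_fixed hg y + 2 * hy01
      rw [Pi.add_apply, Pi.smul_apply, smul_eq_mul]
      rcases (show k = 0 ∨ k = 1 ∨ ∃ j, k = hi j from by
        rcases k with ⟨_ | _ | j, hj⟩
        · exact Or.inl rfl
        · exact Or.inr (Or.inl rfl)
        · exact Or.inr (Or.inr ⟨⟨j, by omega⟩, Fin.ext (by simp [hi]; omega)⟩)) with rfl | rfl | ⟨j, rfl⟩
      · rw [vA_zero, mul_one]
      · rw [vA_one, mul_one, hz1]
      · rw [mulVec_hi hg, h, Matrix.one_mulVec, hy01, mul_zero, zero_add, add_self_zero, vA_hi, mul_zero]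
    funext k
    have := congrFun hz k
    simp only [hy, Matrix.mulVec_add, Pi.add_apply, Pi.smul_apply, smul_eq_mul] at this ⊢
    linear_combination this - (mat g *ᵥ x) k * two (F := F) - x k * two (F := F)
  set x : Fin 6 → F := Pi.single c 1
  obtain ⟨a, ha⟩ := key x
  show mat (g ^ 4) *ᵥ x = mat 1 *ᵥ x
  rw [show g ^ 4 = g * g * g * g by simp [pow_succ], mat_one, Matrix.one_mulVec]
  simp only [mat_mul, ← Matrix.mulVec_mulVec]
  rw [ha]
  simp only [Matrix.mulVec_add, Matrix.mulVec_smul, hfix]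
  rw [ha, add_assoc, ← add_smul, add_self_zero, zero_smul, add_zero]

theorem toFour_injective : Function.Injective (toFour (F := F) i) := by
  refine (MonoidHom.ker_eq_bot_iff _).1 ?_
  let ι : stabA (F := F) i →* SU6 F := (stabA i).subtype
  have hι : ∀ x, ι x = x.1 := fun _ => rfl
  generalize hD : (toFour (F := F) i).ker.map ι = D
  have hmem : ∀ d ∈ D, ∃ k : stabA (F := F) i, toFour i k = 1 ∧ k.1 = d := by
    intro d hd
    rw [← hD] at hd
    obtain ⟨k, hk, e⟩ := Subgroup.mem_map.1 hd
    exact ⟨k, MonoidHom.mem_ker.1 hk, (hι k).symm.trans e⟩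
  have hblock : ∀ d ∈ D, d ∈ stabA (F := F) i ∧ blockFour d = 1 := by
    intro d hd
    obtain ⟨k, hk, rfl⟩ := hmem d hd
    have h := toFour_val i k
    rw [hk] at h
    exact ⟨k.2, h.symm⟩
  have hsub : ∀ d ∈ D, d ∈ sub (F := F) i := fun d hd => (Subgroup.mem_inf.1 (hblock d hd).1).1
  have hfixD : ∀ d ∈ D, d ∈ fixV (vA : Fin 6 → F) := fun d hd => (Subgroup.mem_inf.1 (hblock d hd).1).2
  have h2 : IsPGroup 2 D := by
    intro d
    refine ⟨2, Subtype.ext ?_⟩
    rw [SubgroupClass.coe_pow, show (2 : ℕ) ^ 2 = 4 from rfl]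
    exact pow_four_eq_one (hfixD _ d.2) (hblock _ d.2).2
  have hnorm : ∀ x ∈ sub (F := F) i, x ∈ fixV (vA : Fin 6 → F) → ∀ d ∈ D, x * d * x⁻¹ ∈ D := by
    intro x hx hxv d hd
    obtain ⟨k, hk, rfl⟩ := hmem d hd
    rw [← hD]
    let y : stabA (F := F) i := ⟨x, Subgroup.mem_inf.2 ⟨hx, hxv⟩⟩
    have hy : toFour i (y * k * y⁻¹) = 1 := by rw [map_mul, map_mul, hk, mul_one, map_inv, mul_inv_cancel]
    refine Subgroup.mem_map.2 ⟨y * k * y⁻¹, MonoidHom.mem_ker.2 hy, ?_⟩
    rw [map_mul, map_mul, map_inv, hι, hι]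
  have hbot : D = ⊥ := two_core_vA i D hsub h2 hfixD hnorm
  rw [← hD] at hbot
  exact (Subgroup.map_eq_bot_iff_of_injective _ (Subgroup.subtype_injective _)).1 hbot

theorem card_stabA : Nat.card (stabA (F := F) i) = 25920 := by
  letI : MulAction (sub (F := F) i) (Fin 6 → F) :=
    { smul := fun x v => mat x.1 *ᵥ v
      one_smul := fun v => Matrix.one_mulVec v
      mul_smul := fun a b v => (Matrix.mulVec_mulVec v (mat a.1) (mat b.1)).symm }
  have he : MulAction.stabilizer (sub (F := F) i) (vA : Fin 6 → F) = (stabA i).subgroupOf (sub i) :=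
    Subgroup.ext fun x => ⟨fun h => ⟨x.2, h⟩, fun h => h.2⟩
  have ho : MulAction.orbit (sub (F := F) i) (vA : Fin 6 → F) = orbV i vA := by
    ext y
    exact ⟨fun ⟨x, hx⟩ => ⟨x.1, x.2, hx⟩, fun ⟨x, hx, e⟩ => ⟨⟨x, hx⟩, e⟩⟩
  have h := (MulAction.stabilizer (sub (F := F) i) (vA : Fin 6 → F)).card_mul_index
  rw [MulAction.index_stabilizer, ho, (orb_two (F := F) i).1, card_sub, he,
    Nat.card_congr (Subgroup.subgroupOfEquivOfLe (inf_le_left : stabA (F := F) i ≤ sub i)).toEquiv] at h
  show Nat.card ↥(sub (F := F) i ⊓ fixV vA) = 25920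
  omega

theorem hcard4 : Fintype.card F = 4 := Setup.card

/-- The special unitary group inside the general unitary group. -/
noncomputable def suToGU : SU 4 F 2 →* GU 4 F 2 :=
  (Matrix.SpecialLinearGroup.toGL.comp (SU 4 F 2).subtype).codRestrict _ fun g => g.2

theorem suToGU_injective : Function.Injective (suToGU (F := F)) := fun a b h =>
  Subtype.ext (Matrix.SpecialLinearGroup.toGL_injective (congrArg Subtype.val h))

theorem index_ge_four {H : Subgroup (SU 4 F 2)} (hH : H.index ≤ 3) : H = ⊤ := by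
  classical
  haveI := H97.M22.simple_SU_four (hcard4 (F := F))
  rcases (IsSimpleGroup.eq_bot_or_eq_top_of_normal H.normalCore inferInstance) with h | h
  · exfalso
    have hd : H.normalCore.index ≤ Nat.factorial H.index := by
      rw [Subgroup.normalCore_eq_ker, Subgroup.index_ker]
      calc Nat.card (MulAction.toPermHom (SU 4 F 2) (SU 4 F 2 ⧸ H)).range
          ≤ Nat.card (Equiv.Perm (SU 4 F 2 ⧸ H)) :=
            Nat.card_le_card_of_injective _ Subtype.val_injective
        _ = _ := by rw [Nat.card_perm]; rfl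
    rw [h, Subgroup.index_bot, H97.M22.card_SU_four hcard4] at hd
    have := hd.trans (Nat.factorial_le hH)
    norm_num [Nat.factorial] at this
  · exact top_le_iff.1 (h ▸ H.normalCore_le)

theorem range_toFour : (toFour (F := F) i).range = (suToGU (F := F)).range := by
  classical
  have hSU := H97.M22.card_SU_four (hcard4 (F := F))
  set R := (toFour (F := F) i).range
  set S := (suToGU (F := F)).range
  have hR : Nat.card R = 25920 := by
    rw [← Nat.card_congr (MonoidHom.ofInjective (toFour_injective (F := F) i)).toEquiv, card_stabA]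
  have hS : Nat.card S = 25920 := by
    rw [← Nat.card_congr (MonoidHom.ofInjective (suToGU_injective (F := F))).toEquiv, hSU]
  have hG : Nat.card (GU 4 F 2) = 77760 := by
    have h := H3.card_SU (q := 2) (Setup.hF (F := F)) (n := 4) (by norm_num)
    rw [hSU] at h
    omega
  have hi : (R ⊓ S).index ≤ 9 := by
    refine (Subgroup.index_inf_le (H := R) (K := S)).trans ?_
    have h1 := R.card_mul_index
    have h2 := S.card_mul_index
    rw [hR, hG] at h1
    rw [hS, hG] at h2
    rw [show R.index = 3 by omega, show S.index = 3 by omega]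
  have hRS : (R ⊓ S).comap suToGU = (⊤ : Subgroup (SU 4 F 2)) := by
    refine index_ge_four ?_
    have h1 := ((R ⊓ S).comap (suToGU (F := F))).card_mul_index
    rw [hSU] at h1
    have hc : Nat.card ((R ⊓ S).comap (suToGU (F := F))) = Nat.card ↥(R ⊓ S) := by
      rw [← Subgroup.card_map_of_injective suToGU_injective, Subgroup.map_comap_eq_self inf_le_right]
    have h2 := (R ⊓ S).card_mul_index
    rw [hG] at h2
    rw [hc] at h1
    nlinarith
  have hle : S ≤ R := by
    rintro _ ⟨x, rfl⟩
    exact (show x ∈ (R ⊓ S).comap suToGU from hRS ▸ Subgroup.mem_top x).1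
  exact (Subgroup.eq_of_le_of_card_ge hle (by rw [hR, hS])).symm

/-- The stabiliser of a vector of the short orbit is `SU 4` over the field of four elements. -/
theorem stab_iso {v : Fin 6 → F} (hv : v ∈ orbV i (vA : Fin 6 → F)) :
    Nonempty (↥(sub i ⊓ fixV v) ≃* ↥(SU 4 F 2)) := by
  obtain ⟨y, hy, rfl⟩ := hv
  have e0 : ↥(stabA (F := F) i) ≃* ↥(SU 4 F 2) :=
    ((MonoidHom.ofInjective (toFour_injective i)).trans (MulEquiv.subgroupCongr (range_toFour i))).trans
      (MonoidHom.ofInjective suToGU_injective).symm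
  have key : (stabA (F := F) i).map (MulAut.conj y).toMonoidHom = sub i ⊓ fixV (mat y *ᵥ vA) := by
    ext x
    rw [Subgroup.mem_map_equiv]
    simp only [MulAut.conj_symm_apply, Subgroup.mem_inf]
    refine and_congr ⟨fun h => ?_, fun h => ?_⟩ ?_
    · simpa [mul_assoc] using mul_mem (mul_mem hy h) (inv_mem hy)
    · exact mul_mem (mul_mem (inv_mem hy) h) hy
    · show mat (y⁻¹ * x * y) *ᵥ vA = (vA : Fin 6 → F) ↔ mat x *ᵥ (mat y *ᵥ vA) = mat y *ᵥ vA
      constructor
      · intro h
        conv_rhs => rw [← h]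
        simp [Matrix.mulVec_mulVec, ← mat_mul, mul_assoc]
      · intro h
        simp only [mat_mul, ← Matrix.mulVec_mulVec, h]
        simp only [Matrix.mulVec_mulVec, ← mat_mul, inv_mul_cancel, mat_one, Matrix.one_mulVec]
  exact ⟨(MulEquiv.subgroupCongr key.symm).trans
    (((stabA (F := F) i).equivMapOfInjective _ (MulAut.conj y).injective).symm.trans e0)⟩

end Cfsg.Agent.H90.LargeFischer
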